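import Cfsg.Agent.Leech.Fix2
import Cfsg.Agent.Cl.SLCard
import Cfsg.Agent.Cl.Congr

/-! # A permutation representation of degree 21 of the linear group in dimension three over the
field with four elements -/

set_option autoImplicit false

namespace Cfsg.Agent.TC.L34

open Cfsg.Agent.M24 Cfsg.Agent.Leech Subgroup MulAction Matrix
open scoped Pointwise MatrixGroups

instance factK4 : Fact (∀ r : ZMod 2, r ^ 2 ≠ 1 + 1 * r) := ⟨by decide⟩

/-- The field with four elements. -/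
abbrev K4 : Type := QuadraticAlgebra (ZMod 2) 1 1

instance fintypeK4 : Fintype K4 := Fintype.ofEquiv _ (QuadraticAlgebra.equivProd 1 1).symm

theorem card_K4 : Fintype.card K4 = 4 := by decide

/-- Code of a field element. -/
def c4 (z : K4) : ℕ := z.re.val + 2 * z.im.val
/-- Table lookup. -/
def tb (t a b : ℕ) : ℕ := apw (nat_lit 4) (nat_lit 15) t (Nat.add (Nat.mul (nat_lit 16) a) b)
/-- Addition table. -/
def aT : ℕ := nat_lit 0x123000000000000103200000000000023010000000000003210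
/-- Multiplication table. -/
def mT : ℕ := nat_lit 0x2130000000000000132000000000000032100000000000000000
/-- Digit. -/
def dg (p i : ℕ) : ℕ := apw (nat_lit 4) (nat_lit 15) p i

theorem c4_facts : (∀ a, c4 a < 2 ^ 4) ∧ (∀ a b, c4 a = c4 b → a = b) ∧
    (∀ a b, tb aT (c4 a) (c4 b) = c4 (a + b)) ∧ ∀ a b, tb mT (c4 a) (c4 b) = c4 (a * b) := by
  decide +kernel

/-- Code of a vector. -/
noncomputable def cv (x : Fin 3 → K4) : ℕ := pack 4 3 fun i => c4 (x (Fin.ofNat 3 i))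
/-- Code of a matrix. -/
noncomputable def cm (g : SL(3, K4)) : ℕ :=
  pack 4 9 fun k => c4 (g.1 (Fin.ofNat 3 (k / 3)) (Fin.ofNat 3 k))
/-- Matrix times vector. -/
noncomputable def apv (A x : ℕ) : ℕ := force (dg x (nat_lit 0)) fun x0 => force (dg x (nat_lit 1))
  fun x1 => force (dg x (nat_lit 2)) fun x2 =>
  pack (nat_lit 4) (nat_lit 3) fun i => force (Nat.mul (nat_lit 3) i) fun j =>
    tb aT (tb aT (tb mT (dg A j) x0) (tb mT (dg A (Nat.add j (nat_lit 1))) x1))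
      (tb mT (dg A (Nat.add j (nat_lit 2))) x2)

theorem dg_cv (x : Fin 3 → K4) {i : ℕ} (hi : i < 3) : dg (cv x) i = c4 (x (Fin.ofNat 3 i)) :=
  apw_pack (w := 4) (mk := 15) rfl (fun _ _ => c4_facts.1 _) hi

theorem dg_cm (g : SL(3, K4)) {k : ℕ} (hk : k < 9) :
    dg (cm g) k = c4 (g.1 (Fin.ofNat 3 (k / 3)) (Fin.ofNat 3 k)) :=
  apw_pack (w := 4) (mk := 15) rfl (fun _ _ => c4_facts.1 _) hk

instance actSL : MulAction SL(3, K4) (Fin 3 → K4) where
  smul g x := g.1 *ᵥ x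
  one_smul x := one_mulVec x
  mul_smul g h x := (mulVec_mulVec x g.1 h.1).symm

theorem acL : AC cm (Set.univ : Set (Fin 3 → K4)) cv apv where
  smul_mem _ _ _ := trivial
  inj x _ y _ h := funext fun i => c4_facts.2.1 _ _ (by
    have := (dg_cv x i.2).symm.trans (h ▸ dg_cv y i.2)
    rwa [Fin.ofNat_val_eq_self] at this)
  ap_code g x _ := by
    simp only [apv, force_eq]
    refine pack_congr fun i hi => ?_
    change tb aT (tb aT (tb mT (dg _ (3 * i)) (dg _ 0)) (tb mT (dg _ (3 * i + 1)) (dg _ 1)))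
      (tb mT (dg _ (3 * i + 2)) (dg _ 2)) = c4 ((g.1 *ᵥ x) _)
    rw [dg_cm g (by omega), dg_cm g (by omega), dg_cm g (by omega),
      dg_cv x (by omega), dg_cv x (by omega), dg_cv x (by omega)]
    simp only [c4_facts.2.2.1, c4_facts.2.2.2, mulVec, dotProduct, Fin.sum_univ_three]
    interval_cases i <;> rfl

/-- A generator. -/
def b0 : SL(3, K4) := ⟨!![⟨0, 1⟩, ⟨0, 1⟩, ⟨0, 1⟩; ⟨0, 1⟩, ⟨1, 0⟩, ⟨0, 0⟩; ⟨0, 0⟩, ⟨1, 0⟩, ⟨0, 1⟩], by decide +kernel⟩
/-- A generator. -/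
def b1 : SL(3, K4) := ⟨!![⟨0, 1⟩, ⟨0, 1⟩, ⟨0, 1⟩; ⟨0, 0⟩, ⟨1, 0⟩, ⟨0, 0⟩; ⟨1, 1⟩, ⟨1, 0⟩, ⟨0, 0⟩], by decide +kernel⟩
/-- A generator. -/
def b2 : SL(3, K4) := ⟨!![⟨0, 1⟩, ⟨0, 0⟩, ⟨0, 0⟩; ⟨0, 0⟩, ⟨0, 1⟩, ⟨0, 0⟩; ⟨0, 0⟩, ⟨0, 0⟩, ⟨0, 1⟩], by decide +kernel⟩
def tU : T := (.node (.node (.node (.node (.node (.node .nil (nat_lit 1) (nat_lit 5) (nat_lit 0) .nil)
  (nat_lit 2) (nat_lit 5) (nat_lit 0) (.node .nil (nat_lit 3) (nat_lit 5) (nat_lit 0) .nil)) (nat_lit 16)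
  (nat_lit 1) (nat_lit 0) (.node (.node .nil (nat_lit 17) (nat_lit 9) (nat_lit 0) .nil) (nat_lit 18) (nat_lit
  17) (nat_lit 0) (.node .nil (nat_lit 19) (nat_lit 13) (nat_lit 0) .nil))) (nat_lit 32) (nat_lit 1) (nat_lit
  0) (.node (.node (.node .nil (nat_lit 33) (nat_lit 13) (nat_lit 0) .nil) (nat_lit 34) (nat_lit 9) (nat_lit
  0) (.node .nil (nat_lit 35) (nat_lit 17) (nat_lit 0) .nil)) (nat_lit 48) (nat_lit 1) (nat_lit 0) (.node
  (.node .nil (nat_lit 49) (nat_lit 17) (nat_lit 0) .nil) (nat_lit 50) (nat_lit 13) (nat_lit 0) (.node .nil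
  (nat_lit 51) (nat_lit 9) (nat_lit 0) .nil)))) (nat_lit 256) (nat_lit 0) (nat_lit 0) (.node (.node (.node
  (.node .nil (nat_lit 257) (nat_lit 6) (nat_lit 0) .nil) (nat_lit 258) (nat_lit 8) (nat_lit 0) (.node .nil
  (nat_lit 259) (nat_lit 7) (nat_lit 0) .nil)) (nat_lit 272) (nat_lit 2) (nat_lit 0) (.node (.node .nil
  (nat_lit 273) (nat_lit 10) (nat_lit 0) .nil) (nat_lit 274) (nat_lit 20) (nat_lit 0) (.node .nil (nat_lit
  275) (nat_lit 15) (nat_lit 0) .nil))) (nat_lit 288) (nat_lit 4) (nat_lit 0) (.node (.node (.node .nil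
  (nat_lit 289) (nat_lit 14) (nat_lit 0) .nil) (nat_lit 290) (nat_lit 12) (nat_lit 0) (.node .nil (nat_lit
  291) (nat_lit 19) (nat_lit 0) .nil)) (nat_lit 304) (nat_lit 3) (nat_lit 0) (.node (.node .nil (nat_lit 305)
  (nat_lit 18) (nat_lit 0) .nil) (nat_lit 306) (nat_lit 16) (nat_lit 0) (.node .nil (nat_lit 307) (nat_lit 11)
  (nat_lit 0) .nil))))) (nat_lit 512) (nat_lit 0) (nat_lit 0) (.node (.node (.node (.node (.node .nil (nat_lit
  513) (nat_lit 7) (nat_lit 0) .nil) (nat_lit 514) (nat_lit 6) (nat_lit 0) (.node .nil (nat_lit 515) (nat_lit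
  8) (nat_lit 0) .nil)) (nat_lit 528) (nat_lit 3) (nat_lit 0) (.node (.node .nil (nat_lit 529) (nat_lit 11)
  (nat_lit 0) .nil) (nat_lit 530) (nat_lit 18) (nat_lit 0) (.node .nil (nat_lit 531) (nat_lit 16) (nat_lit 0)
  .nil))) (nat_lit 544) (nat_lit 2) (nat_lit 0) (.node (.node (.node .nil (nat_lit 545) (nat_lit 15) (nat_lit
  0) .nil) (nat_lit 546) (nat_lit 10) (nat_lit 0) (.node .nil (nat_lit 547) (nat_lit 20) (nat_lit 0) .nil))
  (nat_lit 560) (nat_lit 4) (nat_lit 0) (.node (.node .nil (nat_lit 561) (nat_lit 19) (nat_lit 0) .nil)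
  (nat_lit 562) (nat_lit 14) (nat_lit 0) (.node .nil (nat_lit 563) (nat_lit 12) (nat_lit 0) .nil)))) (nat_lit
  768) (nat_lit 0) (nat_lit 0) (.node (.node (.node (.node .nil (nat_lit 769) (nat_lit 8) (nat_lit 0) .nil)
  (nat_lit 770) (nat_lit 7) (nat_lit 0) (.node .nil (nat_lit 771) (nat_lit 6) (nat_lit 0) .nil)) (nat_lit 784)
  (nat_lit 4) (nat_lit 0) (.node (.node .nil (nat_lit 785) (nat_lit 12) (nat_lit 0) .nil) (nat_lit 786)
  (nat_lit 19) (nat_lit 0) (.node .nil (nat_lit 787) (nat_lit 14) (nat_lit 0) .nil))) (nat_lit 800) (nat_lit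
  3) (nat_lit 0) (.node (.node (.node .nil (nat_lit 801) (nat_lit 16) (nat_lit 0) .nil) (nat_lit 802) (nat_lit
  11) (nat_lit 0) (.node .nil (nat_lit 803) (nat_lit 18) (nat_lit 0) .nil)) (nat_lit 816) (nat_lit 2) (nat_lit
  0) (.node (.node .nil (nat_lit 817) (nat_lit 20) (nat_lit 0) .nil) (nat_lit 818) (nat_lit 15) (nat_lit 0)
  (.node .nil (nat_lit 819) (nat_lit 10) (nat_lit 0) .nil))))))
def psU : List (ℕ × ℕ) := [(nat_lit 0x210012222, nat_lit 0x120a9c0414f163c738092d59286), (nat_lit 0x13010222,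
  nat_lit 0xd0c52464dcb84866400ef50a85), (nat_lit 0x200020002, nat_lit 0x149ca307b9ac5a928398a418820)]
def cB_t0 : T := (.node (.node (.node (.node (.node .nil (nat_lit 0) (nat_lit 0) (nat_lit
  0x149ca307b9ac5a928398a418820) .nil) (nat_lit 1) (nat_lit 50209) (nat_lit 0x13584f160cd249114508b06b80f)
  .nil) (nat_lit 2) (nat_lit 33) (nat_lit 0x137856d930434d1ca2422628107) (.node (.node .nil (nat_lit 3)
  (nat_lit 2081) (nat_lit 0xe24d9453c49885a382e48018e5) .nil) (nat_lit 4) (nat_lit 514) (nat_lit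
  0x142bd4c69e488add04ccc019022) .nil)) (nat_lit 5) (nat_lit 2) (nat_lit 0x172a4b2368f60e272a01048a66) (.node
  (.node (.node .nil (nat_lit 6) (nat_lit 1) (nat_lit 0x1451875448b1c8af681c249a70) .nil) (nat_lit 7) (nat_lit
  66) (nat_lit 0x1368d4c850247a64501ccb889c8) .nil) (nat_lit 8) (nat_lit 49) (nat_lit
  0x49b0a25a2233d1207c1aa9182e) (.node .nil (nat_lit 9) (nat_lit 65) (nat_lit 0x13385e51ca0c4a804a19a28a1cb)
  .nil))) (nat_lit 10) (nat_lit 50704) (nat_lit 0x1422db09a448280e172a4f1c586) (.node (.node (.node (.node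
  .nil (nat_lit 11) (nat_lit 529) (nat_lit 0x7a386d884ac0296299a0879249) .nil) (nat_lit 12) (nat_lit 16929)
  (nat_lit 0x1211d9350d007ba112a42459a8d) .nil) (nat_lit 13) (nat_lit 2128) (nat_lit
  0x3726882980a2422d60a417ae67) (.node (.node .nil (nat_lit 14) (nat_lit 80) (nat_lit
  0xa98da6380b27912e58a3464028) .nil) (nat_lit 15) (nat_lit 1584) (nat_lit 0xc0d10e035e51ae53119313a890)
  .nil)) (nat_lit 16) (nat_lit 16) (nat_lit 0x120a9c0414f163c738092d59286) (.node (.node (.node .nil (nat_lit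
  17) (nat_lit 2097) (nat_lit 0x1073c0261e492862622e835226d) .nil) (nat_lit 18) (nat_lit 67121) (nat_lit
  0x12982234b8e513d4b3348c0a214) .nil) (nat_lit 19) (nat_lit 1569) (nat_lit 0x10106fa1547931ab8b9064c262)
  (.node .nil (nat_lit 20) (nat_lit 68113) (nat_lit 0x9d221538c4425e269d8582c72) .nil))))
def cB_l0 : Lvl := ⟨nat_lit 0, [nat_lit 0x120a9c0414f163c738092d59286, nat_lit 0xd0c52464dcb84866400ef50a85,
  nat_lit 0x149ca307b9ac5a928398a418820], [nat_lit 0, nat_lit 0, nat_lit 0], cB_t0⟩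
def cB_t1 : T := (.node (.node (.node (.node (.node .nil (nat_lit 1) (nat_lit 0) (nat_lit
  0x149ca307b9ac5a928398a418820) .nil) (nat_lit 2) (nat_lit 16945) (nat_lit 0x63950f741b1a4a6c4ad4410460)
  .nil) (nat_lit 3) (nat_lit 1569) (nat_lit 0xf835d194e862a0ec5a92209060) (.node (.node .nil (nat_lit 4)
  (nat_lit 2577) (nat_lit 0xc5256f6ba0641cb19d24120860) .nil) (nat_lit 5) (nat_lit 49) (nat_lit
  0xe7b60952d8729903110338ca80) .nil)) (nat_lit 6) (nat_lit 2082) (nat_lit 0x148ce4531d0a62d2218490735e0)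
  (.node (.node (.node .nil (nat_lit 7) (nat_lit 2562) (nat_lit 0x641ca962973a46420906d73e00) .nil) (nat_lit
  8) (nat_lit 16) (nat_lit 0x11a4a6531d095b1412086e83da0) .nil) (nat_lit 9) (nat_lit 17) (nat_lit
  0x7320aa62d24188307b9b49ca20) (.node .nil (nat_lit 10) (nat_lit 545) (nat_lit 0x62a0f395222184895b14f6ba00)
  .nil))) (nat_lit 11) (nat_lit 50225) (nat_lit 0xb53128314e20907194e8f835c0) (.node (.node (.node (.node .nil
  (nat_lit 12) (nat_lit 560) (nat_lit 0x53a0cd73e0119051a4a6b53120) .nil) (nat_lit 13) (nat_lit 1) (nat_lit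
  0x138ca831102a5a58d73e0729900) .nil) (nat_lit 14) (nat_lit 66626) (nat_lit 0x10735e21848639513a464a62d20)
  (.node .nil (nat_lit 15) (nat_lit 17937) (nat_lit 0x149466408c4b5312d73e053a0c0) .nil)) (nat_lit 16)
  (nat_lit 514) (nat_lit 0xe83da120866395128d2695b140) (.node (.node (.node .nil (nat_lit 17) (nat_lit 2)
  (nat_lit 0x418828398af741b2a4e2c5a920) .nil) (nat_lit 18) (nat_lit 529) (nat_lit
  0x41046c4ad4e83da531d11a4a60) .nil) (nat_lit 19) (nat_lit 65) (nat_lit 0x30888b53130735e531d148ce40) (.node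
  .nil (nat_lit 20) (nat_lit 80) (nat_lit 0x1208719d24d73e096296641ca0) .nil))))
def cB_l1 : Lvl := ⟨nat_lit 1, [nat_lit 0x11a4a6531d095b1412086e83da0, nat_lit 0x7320aa62d24188307b9b49ca20],
  [nat_lit 34, nat_lit 0x18842210631], cB_t1⟩
def cB_t2 : T := (.node (.node (.node (.node (.node .nil (nat_lit 5) (nat_lit 0) (nat_lit
  0x149ca307b9ac5a928398a418820) .nil) (nat_lit 6) (nat_lit 98) (nat_lit 0x10735ec5257494668314e311020) .nil)
  (nat_lit 7) (nat_lit 3) (nat_lit 0x128d26e6c1ea4b1662a0e418820) (.node .nil (nat_lit 8) (nat_lit 113)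
  (nat_lit 0x962971a4a6d839e5418e220c20) .nil)) (nat_lit 9) (nat_lit 1) (nat_lit
  0x139522b53127320af741a220c20) (.node (.node .nil (nat_lit 10) (nat_lit 3107) (nat_lit
  0x129c68a5a5863950e7b60220c20) .nil) (nat_lit 11) (nat_lit 35) (nat_lit 0x148ce4c4ad4829cd06bdc220c20)
  (.node .nil (nat_lit 12) (nat_lit 97) (nat_lit 0x11a4a6962965418ed839e220c20) .nil))) (nat_lit 13) (nat_lit
  16) (nat_lit 0x12a4e2641cae83daa62d2311020) (.node (.node (.node .nil (nat_lit 14) (nat_lit 112) (nat_lit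
  0x1494668314f0735ec5256311020) .nil) (nat_lit 15) (nat_lit 515) (nat_lit 0x138ca872990f6ba0b4a98311020)
  (.node .nil (nat_lit 16) (nat_lit 1121) (nat_lit 0x119d2453a0cd7c1c95b14311020) .nil)) (nat_lit 17) (nat_lit
  49) (nat_lit 0x641cb2a4e2a62d2e83da311020) (.node (.node .nil (nat_lit 18) (nat_lit 3121) (nat_lit
  0x8314f49466c52570735e311020) .nil) (nat_lit 19) (nat_lit 1571) (nat_lit 0x7299138ca8b4a98f6ba0311020)
  (.node .nil (nat_lit 20) (nat_lit 1137) (nat_lit 0x53a0d19d2495b14d7c1c311020) .nil))))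
def cB_l2 : Lvl := ⟨nat_lit 5, [nat_lit 0x12a4e2641cae83daa62d2311020, nat_lit 0xb531339522f741a7320a220c20,
  nat_lit 0x128d26e6c1ea4b1662a0e418820], [nat_lit 0x884421043108621, nat_lit 0x142218c611, nat_lit
  0x3108621], cB_t2⟩
def cB_t3 : T := (.node (.node .nil (nat_lit 2) (nat_lit 0) (nat_lit 0x149ca307b9ac5a928398a418820) .nil)
  (nat_lit 3) (nat_lit 1) (nat_lit 0xe83daa62d32a4e2641ca311020) (.node .nil (nat_lit 4) (nat_lit 16) (nat_lit
  0xb531339522f741a7320a220c20) .nil))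
def cB_l3 : Lvl := ⟨nat_lit 2, [nat_lit 0xb531339522f741a7320a220c20], [nat_lit 0xe238c47190441], cB_t3⟩
def cB : List Lvl := [cB_l0, cB_l1, cB_l2, cB_l3]

theorem chk_B : chkG 5 31 21 cB = true := by decide +kernel

theorem lab_U : labChk apv (apw 5 31) psU tU = true := by decide +kernel

theorem keys_U : (tU.all fun k _ _ =>
    Nat.beq (cv fun i => ⟨(dg k i % 2 : ℕ), (dg k i / 2 : ℕ)⟩) k) = true := by decide +kernel

theorem cm_b : cm b0 = 8858444322 ∧ cm b1 = 318833186 ∧ cm b2 = 8590065666 := by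
  decide +kernel

theorem card_gen : Nat.card (gen ((finEnc 21).code 5) (gensOf cB)) = 20160 := by
  rw [(chkG_sound (finEnc 21) rfl (by norm_num) chk_B).2.1]; decide +kernel

theorem iso_K4 : Nonempty (gen ((finEnc 21).code 5) (gensOf cB) ≃* PSL(3, K4)) := by
  have h := chkG_sound (finEnc 21) rfl (by norm_num) chk_B
  have C := (finEnc 21).gc (w := 5) (mk := 31) rfl (by norm_num)
  obtain ⟨θ, h1, -, h2⟩ := exists_lab_hom acL ((finEnc 21).ac (w := 5) (mk := 31) rfl (by norm_num))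
    C.inj (ps := psU) (l := [cm b0, cm b1, cm b2]) (l' := gensOf cB)
    (by rw [cm_b.1, cm_b.2.1, cm_b.2.2]; rfl) rfl (by simp only [Valid, List.forall_mem_cons]; exact ⟨⟨_, rfl⟩, ⟨_, rfl⟩, ⟨_, rfl⟩, by simp⟩) h.1 (t := tU) (hi' := 2 ^ 16)
    (by decide +kernel) (fun k _ hk => let ⟨_, _, e⟩ := T.mem_keys.1 hk
      ⟨_, Nat.eq_of_beq_eq_true ((T.all_iff _ _).1 keys_U _ _ _ e)⟩) lab_U (sep_pt (finEnc 21) (by decide +kernel))
  have hb : b2 ∈ gen cm [cm b0, cm b1, cm b2] := mem_gen_of_mem (by simp)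
  generalize gen cm [cm b0, cm b1, cm b2] = S at θ h1 h2 hb
  have h3 : θ ⟨b2, hb⟩ = 1 := h2 ⟨b2, hb⟩ 1 (by
    rw [C.code_one, show cm (⟨b2, hb⟩ : S).1 = _ from cm_b.2.2]; decide +kernel)
  haveI : Fact (Nat.Prime 3) := ⟨by norm_num⟩
  have h4 : orderOf b2 = 3 := orderOf_eq_prime (Subtype.ext (by decide +kernel))
    (fun h => absurd (congrArg (fun g : SL(3, K4) => g.1 0 0) h) (by decide +kernel))
  have h5 : Nat.card θ.range = 20160 := by rw [h1, card_gen]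
  have h6 := Cl.card_sl_mul (F := K4) 3 (by norm_num)
  have h7 := Cl.card_center_sl (F := K4) (ι := Fin 3)
  have h8 := θ.ker.card_mul_index
  have h9 := card_dvd_of_le (zpowers_le.2 (show ⟨b2, hb⟩ ∈ θ.ker from h3))
  rw [Nat.card_zpowers, Subgroup.orderOf_mk, h4] at h9
  rw [index_ker, h5] at h8
  rw [card_K4] at h6 h7
  replace h6 : Nat.card SL(3, K4) = 3 * 20160 := by
    rw [Fin.prod_univ_three] at h6
    have : (4 - 1) * Nat.card SL(3, K4) = 181440 := h6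
    omega
  have h10 := card_le_card_group S
  have h11 := Nat.le_of_dvd Nat.card_pos h9
  have hS : S = ⊤ := eq_top_of_card_eq _ (by omega)
  let β := θ.comp ((MulEquiv.subgroupCongr hS).trans topEquiv).symm.toMonoidHom
  have hr : β.range = θ.range := by
    rw [MonoidHom.range_comp, MonoidHom.range_eq_top.2 (MulEquiv.surjective _), ← MonoidHom.range_eq_map]
  have hz : zpowers b2 = center _ := eq_of_le_of_card_ge (zpowers_le.2 (Subgroup.mem_center_iff.2 fun g =>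
    Subtype.ext (by
      change g.1 * b2.1 = b2.1 * g.1
      rw [show b2.1 = (⟨0, 1⟩ : K4) • (1 : Matrix (Fin 3) (Fin 3) K4) by decide +kernel]
      simp))) (by rw [h7, Nat.card_zpowers, h4]; decide)
  have hk : center _ = β.ker := eq_of_le_of_card_ge (hz ▸ zpowers_le.2 h3) (by
    have := β.ker.card_mul_index
    rw [index_ker, hr, h5, h6] at this
    rw [h7, show Nat.gcd (Fintype.card (Fin 3)) (4 - 1) = 3 from rfl]; omega)
  exact ⟨((QuotientGroup.quotientMulEquivOfEq hk).trans ((QuotientGroup.quotientKerEquivRange β).trans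
    (MulEquiv.subgroupCongr (hr.trans h1)))).symm⟩

theorem iso_PSL (F : Type*) [Field F] [Fintype F] (hF : Fintype.card F = 4) :
    Nonempty (gen ((finEnc 21).code 5) (gensOf cB) ≃* PSL(3, F)) :=
  let ⟨e⟩ := iso_K4
  ⟨e.trans (Cl.pslCongr (FiniteField.ringEquivOfCardEq (card_K4.trans hF.symm)))⟩

/-- codes of the letters `x, x⁻¹, y, y⁻¹` -/
noncomputable def lc : ℕ → ℕ := lget [nat_lit 0x120a9c0414f163c738092d59286, nat_lit 0x1451875448b1c8af681c249a70, nat_lit 0xd0c52464dcb84866400ef50a85, nat_lit 0x172a4b2368f60e272a01048a66] 0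

/-- relators -/
def rl : List (List ℕ) := [[0, 2, 0, 2, 0, 2], [0, 3, 0, 3, 0, 3], [0, 2, 2, 2, 2, 0, 3, 0, 3], [0, 2, 0, 2, 0, 3, 3, 3, 3], [0, 0, 2, 0, 2, 0, 0, 3, 0, 3], [0, 0, 0, 0, 0, 0, 2, 1, 2, 1, 2], [0, 0, 0, 0, 0, 0, 3, 1, 3, 1, 3], [0, 0, 0, 2, 1, 3, 0, 0, 0, 2, 1, 3], [0, 2, 0, 2, 0, 3, 3, 1, 2, 1, 2, 1, 3], [0, 2, 0, 3, 0, 3, 0, 2, 2, 0, 3, 0, 3]]

end Cfsg.Agent.TC.L34
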