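import Cfsg.Agent.TC.W22c
import Cfsg.Agent.TC.R78i

/-! # The representation of degree 78 is faithful -/

set_option autoImplicit false

namespace Cfsg.Agent.TC.W22

open Cfsg.Agent.M24 Cfsg.Spor Cfsg.Spor.Fi22 Subgroup MulAction Cfsg.Agent.TC.Mp

theorem inj_core {G H X : Type*} [Group G] [Group H] {φ : G →* Equiv.Perm X} {f : G →* H} {d : G}
    {x : X} (hi : Function.Injective φ) (ht : ∀ y, ∃ g, φ g • x = y)
    (hs : ∀ g, φ g • x = x → Commute g d)
    (hc : ∀ y ≠ x, ∃ h w, Commute h d ∧ φ (h * w) • x = y ∧ f (w * d * w⁻¹) ≠ f d) :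
    Function.Injective f := by
  refine (injective_iff_map_eq_one f).2 fun n hn => hi ((Equiv.ext fun y => ?_).trans (map_one φ).symm)
  obtain ⟨g, rfl⟩ := ht y
  by_contra e
  obtain ⟨h, w, a, b, c⟩ := hc (φ (g⁻¹ * n * g) • x) fun e' => e (by
    rw [map_mul, map_mul, map_inv, mul_smul, mul_smul, inv_smul_eq_iff] at e'; exact e')
  have k := (hs ((h * w)⁻¹ * (g⁻¹ * n * g)) (by rw [map_mul, map_inv, mul_smul, ← b, inv_smul_smul])).map f
  simp only [map_mul, map_inv, hn, mul_one, inv_mul_cancel] at k c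
  refine c ?_
  have k1 : Commute (f w) (f d) := by
    simpa using ((a.map f).inv_left.mul_left k.inv_left)
  rw [k1.eq, mul_inv_cancel_right]

theorem inj : ∃ f : Fi22 →* GL (Fin 78) (ZMod 13), Function.Injective f := by
  obtain ⟨f, hf⟩ := F22.lift R78.sat
  obtain ⟨m, hm⟩ := invTab_sound c1
  have hl : ∀ {l : List ℕ}, (∀ i ∈ l, i < 9) → ∀ x : Fin 3510, (evl m l • x).val = apl fA l x.val :=
    fun h => apl_evl fun i hi => (hm i (h i hi)).2
  obtain ⟨φ, hφ⟩ := F22.lift (v := m) ⟨fun i hi => (hm i hi).1, fun l h => ⟨(F22.sat.2 l h).1,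
    ptEq_sound ((List.mem_append.1 h).elim (List.all_eq_true.1 c2 l) (List.all_eq_true.1 c3 l))
      (hl (F22.sat.2 l h).1) fun _ => rfl⟩⟩
  let u : ℕ → Fi22 := fun i => cxo edges extra (F22.en i)
  have hx : ∀ i < 9, F22.ix (F22.en i) = i := by decide
  have hu : ∀ i < 9, φ (u i) = m i := fun i hi => by rw [hφ, hx i hi]
  have hul : ∀ {l : List ℕ}, (∀ i ∈ l, i < 9) → φ (evl u l) = evl m l := fun {l} h => by
    rw [evl_map]; exact evl_congr fun i hi => hu i (h i hi)
  have hA : WRep Fin.val φ.range wA :=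
    (cut_rep (S := φ.range) fun i hi => ⟨m i, ⟨_, hu i hi⟩, (hm i hi).2⟩).apn
  let x : Fin 3510 := ⟨105, by norm_num⟩
  let S : Subgroup (Equiv.Perm (Fin 3510)) := φ.range ⊓ (centralizer {m 8} ⊓ stabilizer _ x)
  have hB : WRep Fin.val S wB := WRep.apn fun i => by
    obtain ⟨g, hg, e⟩ := hA (lget bw 0 i)
    have := (lall_iff _ _).1 c4 (lget bw 0 i) (by
      rw [lget_eq_getD]
      by_cases hi : i < bw.length
      · rw [List.getD_eq_getElem _ _ hi]; exact List.mem_cons_of_mem _ (List.getElem_mem hi)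
      · rw [List.getD_eq_default _ _ (by omega)]; exact List.mem_cons_self)
    rw [band_eq, Bool.and_eq_true] at this
    refine ⟨g, ⟨hg, mem_centralizer_singleton_iff.2 (ptEq_sound this.2 (fun y => ?_) fun y => ?_),
      Fin.ext ((e x).trans (Nat.eq_of_beq_eq_true this.1))⟩, fun y => by rw [e, fB, force_eq]⟩
    · rw [mul_smul, e, (hm 8 (by norm_num)).2, force_eq]
    · rw [mul_smul, (hm 8 (by norm_num)).2, e, force_eq]
  haveI := F22.card_le.1
  have ht : ∀ y, ∃ g, φ g • x = y := fun y => by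
    obtain ⟨_, ⟨g, rfl⟩, e⟩ := hA.conn (x := x) c6.1 y (T.has_sound ((nall_iff _ _).1 c6.2 y y.2))
    exact ⟨g, Fin.ext e⟩
  have h1 : 18393661440 ≤ Nat.card S := c5.2.symm.le.trans ((hB.lb Fin.val_injective (by
    simp only [List.forall_mem_cons, List.not_mem_nil, IsEmpty.forall_iff, implies_true, and_true]
    exact ⟨⟨⟨10, by norm_num⟩, rfl⟩, ⟨⟨2, by norm_num⟩, rfl⟩, ⟨⟨48, by norm_num⟩, rfl⟩,
      ⟨⟨1008, by norm_num⟩, rfl⟩⟩) c5.1).trans (card_le_of_le inf_le_left))
  have h2 := (stabilizer φ.range x).index_mul_card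
  rw [index_stabilizer, show orbit φ.range x = Set.univ from Set.eq_univ_of_forall fun y =>
    let ⟨g, e⟩ := ht y; ⟨⟨_, g, rfl⟩, e⟩, Set.ncard_univ, Nat.card_eq_fintype_card, Fintype.card_fin,
    ← card_map_of_injective φ.range.subtype_injective] at h2
  have h3 : S ≤ (stabilizer φ.range x).map φ.range.subtype := fun g hg => ⟨⟨g, hg.1⟩, hg.2.2, rfl⟩
  have h4 := card_le_of_le h3
  have h5 := Nat.card_le_card_of_surjective _ φ.rangeRestrict_surjective
  have h6 := F22.card_le.2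
  have hi : Function.Injective φ := fun a b e =>
    ((Nat.bijective_iff_surjective_and_card φ.rangeRestrict).2
      ⟨φ.rangeRestrict_surjective, by omega⟩).1 (Subtype.ext e)
  have h7 := eq_of_le_of_card_ge h3 (by omega)
  have hc : ∀ g, φ g ∈ S → Commute g (u 8) := fun g hg => hi (by
    rw [map_mul, map_mul, hu 8 (by norm_num)]; exact mem_centralizer_singleton_iff.1 hg.2.1)
  have hfu : ∀ i < 9, (f (u i)).1 = mt 13 78 (R78.mc i) := fun i hi => by
    rw [hf, hx i hi, R78.gl_val hi]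
  refine ⟨f, inj_core (d := u 8) hi ht (fun g e => hc g (h7 ▸ ⟨⟨_, g, rfl⟩, e, rfl⟩)) fun y hy => ?_⟩
  have key : ∀ (w : List ℕ) (j : ℕ) (r : Fin 3510) (t : T), (∀ i ∈ w, i < 9) → j < 9 →
      apl fA w 105 = r.val → ptEq 3510 (apl fA (8 :: w)) (apl fA (w ++ [j])) = true →
      mt 13 78 (R78.mc j) ≠ mt 13 78 (R78.mc 8) →
      connChk wB [1, 2, 3, 4, 5, 6, 7, 8, 9] r.val t = true → t.has y = true →
      ∃ h w, Commute h (u 8) ∧ φ (h * w) • x = y ∧ f (w * u 8 * w⁻¹) ≠ f (u 8) := by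
    intro w j r t hw hj a b c d e
    obtain ⟨g, hg, eg⟩ := hB.conn d y (T.has_sound e)
    obtain ⟨k, rfl⟩ := hg.1
    have b1 : ∀ i ∈ 8 :: w, i < 9 := List.forall_mem_cons.2 ⟨by norm_num, hw⟩
    have b2 : ∀ i ∈ w ++ [j], i < 9 := List.forall_mem_append.2 ⟨hw, by simpa using hj⟩
    have b3 : evl u w * u 8 = u j * evl u w := by
      have := hi ((hul b1).trans ((ptEq_sound b (hl b1) (hl b2)).trans (hul b2).symm))
      rwa [evl, evl_append, evl, evl, one_mul] at this
    refine ⟨k, evl u w, hc k hg, ?_, fun e' => c ?_⟩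
    · rw [map_mul, mul_smul, hul hw, show evl m w • x = r from Fin.ext ((hl hw x).trans a)]
      exact Fin.ext eg
    · rw [b3, mul_inv_cancel_right] at e'
      rw [← hfu j hj, e', hfu 8 (by norm_num)]
  have := (nall_iff _ _).1 c7.2.2 y y.2
  simp only [bor_eq, Bool.or_eq_true, Nat.beq_eq] at this
  rcases this with e | e | e
  · exact absurd (Fin.ext e) hy
  · exact key [5, 0, 8, 5] 0 ⟨10, by norm_num⟩ _ (by decide) (by norm_num) c8.1 c8.2.2.1
      (fun h => absurd (congrFun (congrFun h 0) 1) (by decide +kernel)) c7.1 e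
  · exact key [5, 8] 5 ⟨37, by norm_num⟩ _ (by decide) (by norm_num) c8.2.1 c8.2.2.2
      (fun h => absurd (congrFun (congrFun h 0) 1) (by decide +kernel)) c7.2.1 e

end Cfsg.Agent.TC.W22
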