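import Cfsg.Agent.TC.Pres

/-! # Packed vectors and matrices modulo a small number -/

set_option autoImplicit false

namespace Cfsg.Agent.TC.Mp

open Cfsg.Agent.M24 Finset Matrix

/-- packing -/
def pck (n : ℕ) (f : ℕ → ℕ) : ℕ := ∑ j ∈ range n, f j * 65536 ^ j

/-- digit -/
def dg (x j : ℕ) : ℕ := x / 65536 ^ j % 65536

theorem pck_succ (n : ℕ) (f : ℕ → ℕ) : pck (n + 1) f = f 0 + 65536 * pck n fun j => f (j + 1) := by
  simp only [pck, sum_range_succ', mul_sum, pow_succ, pow_zero, mul_one]
  rw [add_comm]; congr 1; exact sum_congr rfl fun _ _ => by ring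

theorem dg_succ (x j : ℕ) : dg x (j + 1) = dg (x / 65536) j := by
  rw [dg, dg, Nat.div_div_eq_div_mul, pow_succ']

theorem dg_pck : ∀ {n : ℕ} {f : ℕ → ℕ}, (∀ j < n, f j < 65536) → ∀ j < n, dg (pck n f) j = f j
  | n + 1, f, h, 0, _ => by have := h 0 (by omega); rw [pck_succ, dg]; omega
  | n + 1, f, h, j + 1, hj => by
    have := h 0 (by omega)
    rw [dg_succ, pck_succ, show (f 0 + 65536 * pck n fun j => f (j + 1)) / 65536 =
      pck n fun j => f (j + 1) by omega]
    exact dg_pck (fun i hi => h (i + 1) (by omega)) j (by omega)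

theorem pck_congr {n : ℕ} {f g : ℕ → ℕ} (h : ∀ j < n, f j = g j) : pck n f = pck n g :=
  sum_congr rfl fun j hj => by rw [h j (mem_range.1 hj)]

/-- reduction of the digits -/
noncomputable def rd (p n : ℕ) : ℕ → ℕ :=
  Nat.rec (fun _ => 0) (fun _ ih x => force (Nat.div x (nat_lit 65536)) fun y => force (ih y) fun r =>
    Nat.add (Nat.mod (Nat.mod x (nat_lit 65536)) p) (Nat.mul (nat_lit 65536) r)) n

theorem rd_eq (p : ℕ) : ∀ n x, rd p n x = pck n fun j => dg x j % p
  | 0, _ => rfl
  | n + 1, x => by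
    have : rd p (n + 1) x = force (x / 65536) fun y => force (rd p n y) fun r =>
      x % 65536 % p + 65536 * r := rfl
    rw [this, force_eq, force_eq, rd_eq p n, pck_succ]
    simp only [dg_succ]; simp [dg]

/-- linear combination -/
noncomputable def cmb (L : List ℕ) : ℕ → ℕ :=
  List.rec (fun _ => 0) (fun c _ ih x => force (Nat.div x (nat_lit 65536)) fun y => force (ih y) fun r =>
    Nat.add (Nat.mul (Nat.mod x (nat_lit 65536)) c) r) L

theorem cmb_eq : ∀ (L : List ℕ) x, cmb L x = ∑ k ∈ range L.length, dg x k * L.getD k 0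
  | [], _ => rfl
  | c :: L, x => by
    have : cmb (c :: L) x = force (x / 65536) fun y => force (cmb L y) fun r =>
      x % 65536 * c + r := rfl
    rw [this, force_eq, force_eq, cmb_eq L, List.length_cons, sum_range_succ', add_comm]
    simp only [dg_succ]; simp [dg]

variable {p n : ℕ} [NeZero p]

/-- code of a vector -/
def vcd (u : Fin n → ZMod p) : ℕ := pck n fun j => if h : j < n then (u ⟨j, h⟩).val else 0

/-- the matrix with given columns -/
def mt (p n : ℕ) (L : List ℕ) : Matrix (Fin n) (Fin n) (ZMod p) := fun i k => dg (L.getD k 0) i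

/-- well-formed list of columns -/
noncomputable def wf (p n : ℕ) (L : List ℕ) : Bool :=
  band (Nat.beq L.length n) (lall L fun c => Nat.beq (rd p n c) c)

theorem dg_vcd (hp : p ≤ 65536) (u : Fin n → ZMod p) (j : Fin n) : dg (vcd u) j = (u j).val := by
  rw [vcd, dg_pck (fun j hj => by rw [dif_pos hj]; exact (ZMod.val_lt _).trans_le hp) j j.2,
    dif_pos j.2]

theorem step (hp : p ≤ 65536) (hn : n * (p * p) < 65536) {L : List ℕ} (h : wf p n L = true) (u : Fin n → ZMod p) :
    rd p n (cmb L (vcd u)) = vcd (mt p n L *ᵥ u) := by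
  rw [wf, band_eq, Bool.and_eq_true, Nat.beq_eq, lall_iff] at h
  have hc : ∀ k < n, L.getD k 0 = pck n fun j => dg (L.getD k 0) j % p := fun k hk => by
    rw [← rd_eq]; refine (Nat.eq_of_beq_eq_true (h.2 _ ?_)).symm
    rw [List.getD_eq_getElem _ _ (h.1 ▸ hk)]; exact List.getElem_mem _
  have e : cmb L (vcd u) = pck n fun j => ∑ k : Fin n, (u k).val * (dg (L.getD k 0) j % p) := by
    rw [cmb_eq, h.1, ← Fin.sum_univ_eq_sum_range (fun k => dg (vcd u) k * L.getD k 0), pck]
    simp only [sum_mul]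
    rw [sum_comm]
    refine sum_congr rfl fun k _ => ?_
    rw [dg_vcd hp]
    conv_lhs => rw [hc k k.2, pck, mul_sum]
    exact sum_congr rfl fun _ _ => by ring
  rw [rd_eq, e, vcd]
  refine pck_congr fun j hj => ?_
  rw [dg_pck _ j hj, dif_pos hj, ← ZMod.val_natCast]
  · congr 1
    simp [mulVec, dotProduct, mt, mul_comm]
  · intro i _
    refine lt_of_le_of_lt (sum_le_card_nsmul _ _ (p * p) fun k _ => ?_) (by simpa using hn)
    exact Nat.mul_le_mul (ZMod.val_lt _).le (Nat.mod_lt _ (NeZero.pos p)).le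

/-- apply a word -/
noncomputable def apw (p n : ℕ) (c : ℕ → List ℕ) (w : List ℕ) : ℕ → ℕ :=
  List.rec (fun x => x) (fun i _ ih x => force (cmb (c i) x) fun y => force (rd p n y) ih) w

theorem apw_eq (hp : p ≤ 65536) (hn : n * (p * p) < 65536) {c : ℕ → List ℕ} {v : ℕ → GL (Fin n) (ZMod p)} :
    ∀ {w : List ℕ}, (∀ i ∈ w, wf p n (c i) = true ∧ (v i).1 = mt p n (c i)) → ∀ u,
      apw p n c w (vcd u) = vcd ((evl v w).1 *ᵥ u)
  | [], _, u => by simp [apw, evl]
  | i :: w, h, u => by
    have : apw p n c (i :: w) (vcd u) = force (cmb (c i) (vcd u)) fun y =>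
      force (rd p n y) (apw p n c w) := rfl
    rw [this, force_eq, force_eq, step hp hn (h i List.mem_cons_self).1,
      apw_eq hp hn fun j hj => h j (List.mem_cons_of_mem _ hj), evl, Units.val_mul,
      ← mulVec_mulVec, (h i List.mem_cons_self).2]

theorem vcd_single [Fact (1 < p)] (j : Fin n) : vcd (Pi.single j (1 : ZMod p)) = 65536 ^ j.1 := by
  rw [vcd, pck, sum_eq_single j.1]
  · simp [ZMod.val_one]
  · intro b hb hne
    rw [dif_pos (mem_range.1 hb), Pi.single_eq_of_ne (fun e => hne (congrArg Fin.val e))]; simp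
  · simp

theorem vcd_inj (hp : p ≤ 65536) {u u' : Fin n → ZMod p} (h : vcd u = vcd u') : u = u' :=
  funext fun j => ZMod.val_injective p (by rw [← dg_vcd hp, h, dg_vcd hp])

/-- a word acts trivially -/
noncomputable def trv (p n : ℕ) (c : ℕ → List ℕ) (w : List ℕ) : Bool :=
  nall n fun j => force (Nat.pow (nat_lit 65536) j) fun x => Nat.beq (apw p n c w x) x

theorem eq_one_of_single {M : Matrix (Fin n) (Fin n) (ZMod p)}
    (h : ∀ j, M *ᵥ Pi.single j 1 = Pi.single j 1) : M = 1 := by
  ext i j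
  have := congrFun (h j) i
  rw [mulVec_single_one] at this
  simpa [one_apply, Pi.single_apply] using this

theorem trv_sound [Fact (1 < p)] (hp : p ≤ 65536) (hn : n * (p * p) < 65536) {c : ℕ → List ℕ}
    {v : ℕ → GL (Fin n) (ZMod p)} {w : List ℕ}
    (h : ∀ i ∈ w, wf p n (c i) = true ∧ (v i).1 = mt p n (c i)) (ht : trv p n c w = true) :
    evl v w = 1 := by
  refine Units.ext (eq_one_of_single fun j => vcd_inj hp ?_)
  have := (nall_iff _ _).1 ht j j.2
  rw [force_eq] at this
  rw [← apw_eq hp hn h, vcd_single]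
  exact Nat.eq_of_beq_eq_true this

theorem sq_sound [Fact (1 < p)] (hp : p ≤ 65536) (hn : n * (p * p) < 65536) {c : ℕ → List ℕ} {i : ℕ}
    (h : wf p n (c i) = true) (ht : trv p n c [i, i] = true) :
    mt p n (c i) * mt p n (c i) = 1 := by
  refine eq_one_of_single fun j => vcd_inj hp ?_
  have := (nall_iff _ _).1 ht j j.2
  rw [force_eq] at this
  have e : ∀ x, apw p n c [i, i] x = rd p n (cmb (c i) (rd p n (cmb (c i) x))) := fun x => by
    simp [apw, force_eq]
  rw [← mulVec_mulVec, ← step hp hn h, ← step hp hn h, vcd_single, ← e]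
  exact Nat.eq_of_beq_eq_true this

end Cfsg.Agent.TC.Mp
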