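import Cfsg.Agent.TC.R78

/-! # A representation of degree 78 modulo 13 -/

set_option autoImplicit false

namespace Cfsg.Agent.TC.R78

open Cfsg.Agent.M24 Cfsg.Agent.TC.Mp

theorem r0 : trv 13 78 mc [0, 1, 0, 1, 0, 1] = true := by decide +kernel

theorem r1 : trv 13 78 mc [0, 2, 0, 2] = true := by decide +kernel

theorem r2 : trv 13 78 mc [1, 2, 1, 2, 1, 2] = true := by decide +kernel

theorem r3 : trv 13 78 mc [0, 3, 0, 3] = true := by decide +kernel

theorem r4 : trv 13 78 mc [1, 3, 1, 3] = true := by decide +kernel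

theorem r5 : trv 13 78 mc [2, 3, 2, 3, 2, 3] = true := by decide +kernel

theorem r6 : trv 13 78 mc [0, 4, 0, 4] = true := by decide +kernel

theorem r7 : trv 13 78 mc [1, 4, 1, 4, 1, 4] = true := by decide +kernel

theorem r8 : trv 13 78 mc [2, 4, 2, 4] = true := by decide +kernel

theorem r9 : trv 13 78 mc [3, 4, 3, 4] = true := by decide +kernel

theorem r10 : trv 13 78 mc [0, 5, 0, 5, 0, 5] = true := by decide +kernel

theorem r11 : trv 13 78 mc [1, 5, 1, 5] = true := by decide +kernel

theorem r12 : trv 13 78 mc [2, 5, 2, 5] = true := by decide +kernel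

theorem r13 : trv 13 78 mc [3, 5, 3, 5] = true := by decide +kernel

theorem r14 : trv 13 78 mc [4, 5, 4, 5] = true := by decide +kernel

theorem r15 : trv 13 78 mc [0, 6, 0, 6] = true := by decide +kernel

theorem r16 : trv 13 78 mc [1, 6, 1, 6] = true := by decide +kernel

theorem r17 : trv 13 78 mc [2, 6, 2, 6] = true := by decide +kernel

theorem r18 : trv 13 78 mc [3, 6, 3, 6] = true := by decide +kernel

theorem r19 : trv 13 78 mc [4, 6, 4, 6, 4, 6] = true := by decide +kernel

theorem r20 : trv 13 78 mc [5, 6, 5, 6] = true := by decide +kernel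

theorem r21 : trv 13 78 mc [0, 7, 0, 7] = true := by decide +kernel

theorem r22 : trv 13 78 mc [1, 7, 1, 7] = true := by decide +kernel

theorem r23 : trv 13 78 mc [2, 7, 2, 7] = true := by decide +kernel

theorem r24 : trv 13 78 mc [3, 7, 3, 7, 3, 7] = true := by decide +kernel

theorem r25 : trv 13 78 mc [4, 7, 4, 7] = true := by decide +kernel

theorem r26 : trv 13 78 mc [5, 7, 5, 7] = true := by decide +kernel

theorem r27 : trv 13 78 mc [6, 7, 6, 7] = true := by decide +kernel

theorem r28 : trv 13 78 mc [0, 8, 0, 8] = true := by decide +kernel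

theorem r29 : trv 13 78 mc [1, 8, 1, 8] = true := by decide +kernel

theorem r30 : trv 13 78 mc [2, 8, 2, 8] = true := by decide +kernel

theorem r31 : trv 13 78 mc [3, 8, 3, 8] = true := by decide +kernel

theorem r32 : trv 13 78 mc [4, 8, 4, 8] = true := by decide +kernel

theorem r33 : trv 13 78 mc [5, 8, 5, 8, 5, 8] = true := by decide +kernel

theorem r34 : trv 13 78 mc [6, 8, 6, 8] = true := by decide +kernel

theorem r35 : trv 13 78 mc [7, 8, 7, 8] = true := by decide +kernel

end Cfsg.Agent.TC.R78
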