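import Cfsg.Agent.TC.R78

/-! # A representation of degree 78 modulo 13 -/

set_option autoImplicit false

namespace Cfsg.Agent.TC.R78

open Cfsg.Agent.M24 Cfsg.Agent.TC.Mp

theorem r36 : trv 13 78 mc [6, 4, 1, 3, 2, 1, 5, 0, 1, 6, 4, 1, 3, 2, 1, 5, 0, 1, 6, 4, 1, 3, 2, 1, 5, 0, 1, 6, 4, 1, 3, 2, 1, 5, 0, 1, 6, 4, 1, 3, 2, 1, 5, 0, 1, 6, 4, 1, 3, 2, 1, 5, 0, 1, 6, 4, 1, 3, 2, 1, 5, 0, 1, 6, 4, 1, 3, 2, 1, 5, 0, 1, 6, 4, 1, 3, 2, 1, 5, 0, 1, 6, 4, 1, 3, 2, 1, 5, 0, 1] = true := by decide +kernel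

end Cfsg.Agent.TC.R78
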