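import Cfsg.Agent.TC.W22d
import Cfsg.Agent.TC.F22

/-! # A permutation model of degree 3510: checks -/

set_option autoImplicit false
set_option maxRecDepth 100000

namespace Cfsg.Agent.TC.W22

open Cfsg.Agent.M24

/-- the generators -/
noncomputable def fA (i q : ℕ) : ℕ := apw (nat_lit 12) (nat_lit 4095) (lget tb (nat_lit 0) i) q
/-- words in the generators -/
noncomputable def wA : ℕ → ℕ → ℕ := apn (cut fA (nat_lit 9))
/-- generators of the centraliser -/
noncomputable def fB (i q : ℕ) : ℕ := force (lget bw (nat_lit 0) i) fun s => wA s q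
/-- words in them -/
noncomputable def wB : ℕ → ℕ → ℕ := apn fB

theorem c1 : invTab fA 9 3510 = true := by decide +kernel

theorem c2 : ((cxb 9 F22.lab).all fun l => ptEq 3510 (apl fA l) fun q => q) = true := by
  decide +kernel

theorem c3 : (F22.ex.all fun l => ptEq 3510 (apl fA l) fun q => q) = true := by decide +kernel

theorem c4 : lall (0 :: bw) (fun s => band (Nat.beq (wA s 105) 105)
    (ptEq 3510 (fun q => force (fA 8 q) (wA s)) fun q => force (wA s q) (fA 8))) = true := by
  decide +kernel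

theorem c5 : wlb wB 3510 [l1, l2, l3, l4] [] = true ∧ chainSize [l1, l2, l3, l4] = 18393661440 := by
  decide +kernel

theorem c6 : connChk wA [1, 2, 3, 4, 5, 6, 7, 8, 9] 105 t0 = true ∧ nall 3510 t0.has = true := by
  decide +kernel

theorem c7 : connChk wB [1, 2, 3, 4, 5, 6, 7, 8, 9] 10 t1 = true ∧
    connChk wB [1, 2, 3, 4, 5, 6, 7, 8, 9] 37 t5 = true ∧
    nall 3510 (fun q => bor (Nat.beq q 105) (bor (t1.has q) (t5.has q))) = true := by decide +kernel

theorem c8 : apl fA [5, 0, 8, 5] 105 = 10 ∧ apl fA [5, 8] 105 = 37 ∧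
    ptEq 3510 (apl fA [8, 5, 0, 8, 5]) (apl fA [5, 0, 8, 5, 0]) = true ∧
    ptEq 3510 (apl fA [8, 5, 8]) (apl fA [5, 8, 5]) = true := by decide +kernel

end Cfsg.Agent.TC.W22
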