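import Cfsg.Agent.TC.Pres
import Cfsg.Agent.M24.Tools
import Cfsg.Agent.M24.Perm

/-! # Permutation models through words

Elements are words in tabulated generators, only ever applied to points. -/

set_option autoImplicit false

namespace Cfsg.Agent.TC

open Cfsg.Agent.M24 MulAction Subgroup

/-- apply the base-16 word `s` (lowest digit first, digit `d` is letter `d - 1`) to a point -/
noncomputable def apn (f : ℕ → ℕ → ℕ) (s q : ℕ) : ℕ :=
  Nat.rec (motive := fun _ => ℕ → ℕ → ℕ) (fun _ q => q)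
    (fun _ ih s q => bif' (Nat.beq s (nat_lit 0)) q
      (force (Nat.sub (Nat.land s (nat_lit 15)) (nat_lit 1)) fun d => force (f d q) fun q' =>
        force (Nat.shiftRight s (nat_lit 4)) fun s' => ih s' q')) (nat_lit 1000) s q

/-- apply a list of letters -/
noncomputable def apl (f : ℕ → ℕ → ℕ) (w : List ℕ) : ℕ → ℕ :=
  List.rec (motive := fun _ => ℕ → ℕ) (fun q => q) (fun i _ ih q => force (f i q) ih) w

section
variable {G X : Type*} [Group G] [MulAction G X] {idx : X → ℕ} {S : Subgroup G} {f : ℕ → ℕ → ℕ}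

/-- `f i` is the action of an element of `S` -/
def WRep (idx : X → ℕ) (S : Subgroup G) (f : ℕ → ℕ → ℕ) : Prop :=
  ∀ i, ∃ g ∈ S, ∀ x, idx (g • x) = f i (idx x)

theorem WRep.apn (h : WRep idx S f) : WRep idx S (apn f) := by
  unfold TC.apn
  generalize (nat_lit 1000) = n
  induction n with
  | zero => exact fun _ => ⟨1, one_mem _, fun x => by rw [one_smul]; rfl⟩
  | succ n ih =>
    intro s
    by_cases e : Nat.beq s (nat_lit 0) = true
    · exact ⟨1, one_mem _, fun x => by simp only [e, bif'_eq, if_true, one_smul]⟩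
    · obtain ⟨g, hg, eg⟩ := h (Nat.sub (Nat.land s (nat_lit 15)) (nat_lit 1))
      obtain ⟨k, hk, ek⟩ := ih (Nat.shiftRight s (nat_lit 4))
      refine ⟨k * g, mul_mem hk hg, fun x => ?_⟩
      simp only [e, bif'_eq, force_eq, mul_smul, ek, eg]
      rfl

theorem apl_evl {v : ℕ → G} : ∀ {w : List ℕ}, (∀ i ∈ w, ∀ x, idx (v i • x) = f i (idx x)) →
    ∀ x, idx (evl v w • x) = apl f w (idx x)
  | [], _, x => by rw [evl, one_smul]; rfl
  | i :: w, h, x => by
    rw [evl, mul_smul, apl_evl fun j hj => h j (List.mem_cons_of_mem _ hj), h i List.mem_cons_self]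
    exact (force_eq _ _).symm

theorem conn_gen {ap : ℕ → ℕ → ℕ} {gens : List ℕ} {root : ℕ} {t : T}
    (h : connChk ap gens root t = true) {P : ℕ → Prop} (h0 : P root)
    (hs : ∀ s ∈ gens, ∀ b, P b → P (ap s b)) : ∀ k ∈ t.keys, P k := by
  have key : ∀ a k b, (k, a, b) ∈ t.ents → P k := by
    intro a
    induction a using Nat.strong_induction_on with
    | _ a ih =>
      intro k b hm
      have h1 := (T.all_iff _ _).1 h _ _ _ hm
      simp only [bor_eq, band_eq, Bool.or_eq_true, Bool.and_eq_true] at h1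
      rcases h1 with h1 | ⟨h1, h2⟩
      · rw [Nat.eq_of_beq_eq_true h1]; exact h0
      · obtain ⟨s, hs', e⟩ := lnth_sound h1
        obtain ⟨a', b', hm', hlt⟩ := T.find_sound h2
        rw [← Nat.eq_of_beq_eq_true e]
        exact hs s hs' _ (ih a' (Nat.le_of_ble_eq_true hlt) b b' hm')
  intro k hk
  obtain ⟨a, b, hm⟩ := T.mem_keys.1 hk
  exact key a k b hm

theorem WRep.conn (h : WRep idx S f) {gens : List ℕ} {t : T} {x : X}
    (hc : connChk f gens (idx x) t = true) : ∀ k ∈ t.keys, ∃ g ∈ S, idx (g • x) = k :=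
  conn_gen hc ⟨1, one_mem _, by rw [one_smul]⟩ fun s _ b ⟨g, hg, e⟩ =>
    let ⟨k, hk, ek⟩ := h s; ⟨k * g, mul_mem hk hg, by rw [mul_smul, ek, e]⟩

/-- lower bound chain: the generators of each level fix the earlier base points -/
noncomputable def wlb (f : ℕ → ℕ → ℕ) (hi : ℕ) (Ls : List Lvl) : List ℕ → Bool :=
  List.rec (motive := fun _ => List ℕ → Bool) (fun _ => true)
    (fun L _ ih p => band (band (L.t.srt (nat_lit 0) hi) (connChk f L.gens L.b L.t))
      (band (lall L.gens fun s => lall p fun q => Nat.beq (f s q) q) (ih (L.b :: p)))) Ls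

/-- pointwise stabiliser of the points with index in a list -/
def fxs (G : Type*) [Group G] [MulAction G X] (idx : X → ℕ) (p : List ℕ) : Subgroup G :=
  fixingSubgroup G {x | idx x ∈ p}

theorem WRep.lb [Finite S] (hi : Function.Injective idx) (h : WRep idx S f) {n : ℕ} :
    ∀ {Ls : List Lvl} {p : List ℕ}, (∀ L ∈ Ls, ∃ x, idx x = L.b) → wlb f n Ls p = true →
      chainSize Ls ≤ Nat.card (S ⊓ fxs G idx p : Subgroup G)
  | [], p, _, _ => by
    haveI : Finite (S ⊓ fxs G idx p : Subgroup G) := Finite.of_injective _ (inclusion_injective inf_le_left)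
    exact Nat.card_pos
  | L :: Ls, p, hb, hc => by
    have h' : band (band (L.t.srt (nat_lit 0) n) (connChk f L.gens L.b L.t))
      (band (lall L.gens fun s => lall p fun q => Nat.beq (f s q) q) (wlb f n Ls (L.b :: p))) = true := hc
    simp only [band_eq, Bool.and_eq_true, lall_iff] at h'
    obtain ⟨⟨h1, h2⟩, h3, h4⟩ := h'
    have ih := WRep.lb hi h (fun L' hL => hb L' (List.mem_cons_of_mem _ hL)) h4
    obtain ⟨x, e⟩ := hb L List.mem_cons_self
    set K := S ⊓ fxs G idx p
    haveI : Finite K := Finite.of_injective _ (inclusion_injective inf_le_left)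
    have hk : ∀ k ∈ L.t.keys, ∃ g ∈ K, idx (g • x) = k :=
      conn_gen h2 ⟨1, one_mem _, by rw [one_smul, e]⟩ fun s hs b ⟨g, hg, eg⟩ =>
        let ⟨k, hk, ek⟩ := h s
        ⟨k * g, mul_mem ⟨hk, (mem_fixingSubgroup_iff G).2 fun y hy => hi
          ((ek y).trans (Nat.eq_of_beq_eq_true (h3 s hs _ hy)))⟩ hg, by rw [mul_smul, ek, eg]⟩
    show L.t.size * chainSize Ls ≤ Nat.card K
    have e1 := (stabilizer K x).index_mul_card
    rw [index_stabilizer] at e1
    have l1 : L.t.size ≤ (orbit K x).ncard := by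
      rw [T.size_eq, ← List.toFinset_card_of_nodup (T.srt_nodup h1), ← Set.ncard_coe_finset,
        ← Set.ncard_image_of_injective _ hi]
      refine Set.ncard_le_ncard (fun k hk' => ?_) ((Set.finite_range _).image _)
      obtain ⟨g, hg, eg⟩ := hk k (by simpa using hk')
      exact ⟨_, ⟨⟨g, hg⟩, rfl⟩, eg⟩
    have l2 : Nat.card (S ⊓ fxs G idx (L.b :: p) : Subgroup G) ≤ Nat.card (stabilizer K x) :=
      Nat.card_le_card_of_injective (fun g => ⟨⟨g.1, g.2.1, (mem_fixingSubgroup_iff G).2 fun y hy =>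
        (mem_fixingSubgroup_iff G).1 g.2.2 y (List.mem_cons_of_mem _ hy)⟩,
        (mem_fixingSubgroup_iff G).1 g.2.2 x (show idx x ∈ L.b :: p by rw [e]; exact List.mem_cons_self)⟩)
        fun g g' e => Subtype.ext (congrArg (fun y : stabilizer K x => (y.1 : G)) e)
    rw [← e1]
    exact Nat.mul_le_mul l1 (ih.trans l2)

end

/-- tables of `k` involutions of `Fin n` -/
noncomputable def invTab (f : ℕ → ℕ → ℕ) (k n : ℕ) : Bool :=
  nall k fun i => nall n fun q => force (f i q) fun r =>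
    band (Nat.ble (Nat.succ r) n) (Nat.beq (f i r) q)

theorem invTab_sound {f : ℕ → ℕ → ℕ} {k n : ℕ} (h : invTab f k n = true) :
    ∃ m : ℕ → Equiv.Perm (Fin n), ∀ i < k, m i * m i = 1 ∧ ∀ x : Fin n, (m i • x).val = f i x.val := by
  simp only [invTab, nall_iff, force_eq, band_eq, Bool.and_eq_true, Nat.ble_eq, Nat.beq_eq] at h
  have : ∀ i, ∃ m : Equiv.Perm (Fin n), i < k → m * m = 1 ∧ ∀ x : Fin n, (m • x).val = f i x.val := fun i => by
    by_cases hi : i < k
    · have hv : Function.Involutive fun x : Fin n => (⟨f i x, (h i hi x x.2).1⟩ : Fin n) :=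
        fun x => Fin.ext (h i hi x x.2).2
      exact ⟨hv.toPerm _, fun _ => ⟨Equiv.ext hv, fun _ => rfl⟩⟩
    · exact ⟨1, fun h => absurd h hi⟩
  choose m hm using this
  exact ⟨m, hm⟩

/-- the two functions agree on `Fin n` -/
noncomputable def ptEq (n : ℕ) (a b : ℕ → ℕ) : Bool := nall n fun q => Nat.beq (a q) (b q)

theorem ptEq_sound {n : ℕ} {a b : ℕ → ℕ} (h : ptEq n a b = true) {g k : Equiv.Perm (Fin n)}
    (hg : ∀ x : Fin n, (g • x).val = a x.val) (hk : ∀ x : Fin n, (k • x).val = b x.val) : g = k := by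
  simp only [ptEq, nall_iff, Nat.beq_eq] at h
  exact Equiv.ext fun x => Fin.ext ((hg x).trans ((h x x.2).trans (hk x).symm))

/-- letters beyond `k` act trivially -/
noncomputable def cut (f : ℕ → ℕ → ℕ) (k i q : ℕ) : ℕ := bif' (Nat.ble k i) q (f i q)

theorem cut_rep {G X : Type*} [Group G] [MulAction G X] {idx : X → ℕ} {S : Subgroup G}
    {f : ℕ → ℕ → ℕ} {k : ℕ} (h : ∀ i < k, ∃ g ∈ S, ∀ x, idx (g • x) = f i (idx x)) :
    WRep idx S (cut f k) := fun i => by
  by_cases hi : i < k
  · obtain ⟨g, hg, e⟩ := h i hi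
    exact ⟨g, hg, fun x => by rw [cut, bif'_eq, if_neg (by simpa [Nat.ble_eq] using hi), e]⟩
  · exact ⟨1, one_mem _, fun x => by rw [cut, bif'_eq, if_pos (by simpa [Nat.ble_eq] using hi), one_smul]⟩

end Cfsg.Agent.TC
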